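import Mathlib
import Cfsg.Agent.S0016

/-!
# A group-theoretic configuration that does not exist (the Frobenius case of `S₇`)
-/

set_option autoImplicit false

namespace Cfsg.Agent.H359.Alt

open Subgroup

/-- the possible orders -/
def O12 : Finset ℕ := {1, 2, 3, 4, 5, 6, 10, 12}

theorem commute_of_norm {Q : Type*} [Group Q] {a b : Q} {p m : ℕ} (ha : orderOf a = p)
    (hn : b * a * b⁻¹ ∈ zpowers a) (hb : b ^ m = 1) (hp : 0 < p)
    (hk : ∀ k < p, k ^ m % p = 1 % p → k = 1) : Commute b a := by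
  classical
  have hfin : IsOfFinOrder a := orderOf_pos_iff.mp (by rw [ha]; exact hp)
  obtain ⟨k0, hk0⟩ := (hfin.mem_powers_iff_mem_zpowers.mpr hn)
  have h1 : b * a * b⁻¹ = a ^ (k0 % p) := by
    rw [← ha, pow_mod_orderOf]
    exact hk0.symm
  set k := k0 % p with hkd
  have hkp : k < p := Nat.mod_lt _ hp
  have h2 : ∀ j : ℕ, b ^ j * a * (b ^ j)⁻¹ = a ^ (k ^ j) := by
    intro j
    induction j with
    | zero => simp
    | succ j ih =>
      rw [pow_succ']
      have e : b * b ^ j * a * (b * b ^ j)⁻¹ = b * (b ^ j * a * (b ^ j)⁻¹) * b⁻¹ := by group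
      rw [e, ih, ← conj_pow, h1, ← pow_mul, pow_succ']
  have h3 := h2 m
  rw [hb, one_mul, inv_one, mul_one] at h3
  have h4 : a ^ 1 = a ^ (k ^ m) := by rw [pow_one]; exact h3
  rw [pow_eq_pow_iff_modEq, ha] at h4
  have h5 := hk k hkp h4.symm
  rw [h5, pow_one] at h1
  exact mul_inv_eq_iff_eq_mul.mp h1

variable {Q : Type*} [Group Q] [Finite Q]

/-- a Sylow `p`-subgroup has order `p` if the exponent is `p` and commuting elements are powers -/
theorem not_sq_dvd {p : ℕ} (hp : p.Prime) (ho : ∀ q : Q, ∀ k, orderOf q = p ^ k → k ≤ 1)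
    (hc : ∀ a b : Q, orderOf a = p → orderOf b = p → a * b = b * a → b ∈ zpowers a) :
    ¬ p ^ 2 ∣ Nat.card Q := by
  intro hd
  have : Fact p.Prime := ⟨hp⟩
  let P : Sylow p Q := default
  have hP : IsPGroup p (P : Subgroup Q) := P.isPGroup'
  have hcP : p ^ 2 ∣ Nat.card (P : Subgroup Q) := P.pow_dvd_card_of_pow_dvd_card hd
  have h2p : 2 ≤ p := hp.two_le
  have hpp : p < p ^ 2 := by nlinarith
  have : Nontrivial (P : Subgroup Q) := by
    rw [← Finite.one_lt_card_iff_nontrivial]
    have := Nat.le_of_dvd Nat.card_pos hcP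
    omega
  have := hP.center_nontrivial
  obtain ⟨c, hc1⟩ := exists_ne (1 : center (P : Subgroup Q))
  have hord : ∀ x ∈ (P : Subgroup Q), x ≠ 1 → orderOf x = p := by
    intro x hx hx1
    obtain ⟨k, hk⟩ := IsPGroup.iff_orderOf.mp hP ⟨x, hx⟩
    rw [Subgroup.orderOf_mk] at hk
    have h1 := ho x k hk
    interval_cases k
    · rw [pow_zero] at hk
      exact absurd (orderOf_eq_one_iff.mp hk) hx1
    · rw [hk, pow_one]
  set c' : Q := ((c : (P : Subgroup Q)) : Q) with hc'
  have hc'1 : c' ≠ 1 := fun h => hc1 (Subtype.ext (Subtype.ext h))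
  have hco := hord c' (c : (P : Subgroup Q)).2 hc'1
  have hle : (P : Subgroup Q) ≤ zpowers c' := by
    intro x hx
    rcases eq_or_ne x 1 with rfl | hx1
    · exact one_mem _
    refine hc c' x hco (hord x hx hx1) ?_
    have h1 := Subgroup.mem_center_iff.mp c.2 ⟨x, hx⟩
    exact (congrArg Subtype.val h1).symm
  have h1 := Subgroup.card_dvd_of_le hle
  rw [Nat.card_zpowers, hco] at h1
  have h2 := Nat.le_of_dvd hp.pos (hcP.trans h1)
  omega

theorem not_sixteen_dvd (ho : ∀ q : Q, orderOf q ∈ O12) {t : Q}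
    (ht : ∀ x : Q, orderOf x = 2 → x = t) : ¬ 16 ∣ Nat.card Q := by
  intro hd
  have : Fact (Nat.Prime 2) := ⟨Nat.prime_two⟩
  obtain ⟨P, hP⟩ := Sylow.exists_subgroup_card_pow_prime (G := Q) 2 (n := 4) (by norm_num; exact hd)
  norm_num at hP
  have hPp : IsPGroup 2 P := IsPGroup.of_card (n := 4) (by rw [hP]; norm_num)
  have hu : ∀ H K : Subgroup P, Nat.card H = 2 → Nat.card K = 2 → H = K := by
    have key : ∀ H K : Subgroup P, Nat.card H = 2 → Nat.card K = 2 → H ≤ K := by
      intro H K hH hK x hx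
      obtain ⟨y, hy⟩ := exists_prime_orderOf_dvd_card' (G := K) 2 (by rw [hK])
      rcases eq_or_ne x 1 with rfl | hx1
      · exact one_mem _
      have h1 : orderOf x = 2 := by
        have h2 : orderOf (⟨x, hx⟩ : H) ∣ 2 := by rw [← hH]; exact orderOf_dvd_natCard _
        rw [Subgroup.orderOf_mk] at h2
        rcases (Nat.dvd_prime Nat.prime_two).mp h2 with h3 | h3
        · exact absurd (orderOf_eq_one_iff.mp h3) hx1
        · exact h3
      have h3 : (x : Q) = t := ht _ (by rw [Subgroup.orderOf_coe, h1])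
      have h4 : ((y : P) : Q) = t := ht _ (by rw [Subgroup.orderOf_coe, Subgroup.orderOf_coe, hy])
      have h5 : x = (y : P) := Subtype.ext (h3.trans h4.symm)
      rw [h5]
      exact y.2
    exact fun H K hH hK => le_antisymm (key H K hH hK) (key K H hK hH)
  rcases S0016.result 2 hPp hu with hcyc | ⟨-, n, ⟨e⟩⟩
  · obtain ⟨g, hg⟩ := IsCyclic.exists_ofOrder_eq_natCard (α := P)
    have := ho (g : Q)
    rw [Subgroup.orderOf_coe, hg, hP] at this
    revert this
    decide
  · have h1 : Nat.card (QuaternionGroup (2 ^ n)) = 16 := by rw [← Nat.card_congr e.toEquiv, hP]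
    rw [Nat.card_eq_fintype_card, QuaternionGroup.card] at h1
    have h2 := ho ((e.symm (QuaternionGroup.a 1) : P) : Q)
    rw [Subgroup.orderOf_coe, MulEquiv.orderOf_eq, QuaternionGroup.orderOf_a_one] at h2
    have h3 : 2 * 2 ^ n = 8 := by omega
    rw [h3] at h2
    revert h2
    decide

theorem card_dvd (ho : ∀ q : Q, orderOf q ∈ O12) {t : Q} (ht : ∀ x : Q, orderOf x = 2 → x = t)
    (hc : ∀ p, (p = 3 ∨ p = 5) → ∀ a b : Q, orderOf a = p → orderOf b = p → a * b = b * a →
      b ∈ zpowers a) : Nat.card Q ∣ 120 := by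
  have h16 := not_sixteen_dvd ho ht
  have h9 : ¬ 3 ^ 2 ∣ Nat.card Q := by
    refine not_sq_dvd (by norm_num) (fun q k hk => ?_) (hc 3 (Or.inl rfl))
    have h1 := ho q
    rw [hk] at h1
    by_contra h2
    have h3 : 3 ^ k ≤ 12 := by
      simp only [O12, Finset.mem_insert, Finset.mem_singleton] at h1
      omega
    have h4 : 3 ^ k < 3 ^ 3 := by omega
    have h5 := (Nat.pow_lt_pow_iff_right (by norm_num)).mp h4
    interval_cases k
    revert h1
    decide
  have h25 : ¬ 5 ^ 2 ∣ Nat.card Q := by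
    refine not_sq_dvd (by norm_num) (fun q k hk => ?_) (hc 5 (Or.inr rfl))
    have h1 := ho q
    rw [hk] at h1
    by_contra h2
    have h3 : 5 ^ k ≤ 12 := by
      simp only [O12, Finset.mem_insert, Finset.mem_singleton] at h1
      omega
    have h4 : 5 ^ k < 5 ^ 2 := by omega
    have h5 := (Nat.pow_lt_pow_iff_right (by norm_num)).mp h4
    omega
  rw [Nat.dvd_iff_prime_pow_dvd_dvd]
  intro p j hp hj
  rcases Nat.eq_zero_or_pos j with rfl | hj0
  · simp
  have hpk : p ∣ Nat.card Q := (dvd_pow_self p hj0.ne').trans hj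
  have : Fact p.Prime := ⟨hp⟩
  obtain ⟨x, hx⟩ := exists_prime_orderOf_dvd_card' (G := Q) p hpk
  have h1 := ho x
  rw [hx] at h1
  have h2 : p = 2 ∨ p = 3 ∨ p = 5 := by
    simp only [O12, Finset.mem_insert, Finset.mem_singleton] at h1
    rcases h1 with rfl | rfl | rfl | rfl | rfl | rfl | rfl | rfl <;> first
      | decide
      | exact absurd hp (by norm_num)
  rcases h2 with rfl | rfl | rfl
  · have h3 : j < 4 := by
      by_contra h4
      exact h16 ((pow_dvd_pow 2 (not_lt.mp h4)).trans hj)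
    interval_cases j <;> norm_num
  · have h3 : j < 2 := by
      by_contra h4
      exact h9 ((pow_dvd_pow 3 (not_lt.mp h4)).trans hj)
    interval_cases j
    norm_num
  · have h3 : j < 2 := by
      by_contra h4
      exact h25 ((pow_dvd_pow 5 (not_lt.mp h4)).trans hj)
    interval_cases j
    norm_num

theorem no_group (ho : ∀ q : Q, orderOf q ∈ O12) {t : Q} (ht : ∀ x : Q, orderOf x = 2 → x = t)
    (hc : ∀ p, (p = 3 ∨ p = 5) → ∀ a b : Q, orderOf a = p → orderOf b = p → a * b = b * a →
      b ∈ zpowers a) {u y : Q} (hu : orderOf u = 12) (hy : orderOf y = 5) : False := by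
  have : Fact (Nat.Prime 3) := ⟨by norm_num⟩
  have : Fact (Nat.Prime 5) := ⟨by norm_num⟩
  have hcard := card_dvd ho ht hc
  set s := u ^ 4 with hs
  have hs3 : orderOf s = 3 := by
    rw [hs, orderOf_pow_of_dvd (by norm_num) (by rw [hu]; norm_num), hu]
  have h15 : ∀ a b : Q, orderOf a = 3 → orderOf b = 5 → Commute a b → False := by
    intro a b ha hb hab
    have h1 := hab.orderOf_mul_eq_mul_orderOf_of_coprime (by rw [ha, hb]; norm_num)
    have h2 := ho (a * b)
    rw [h1, ha, hb] at h2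
    revert h2
    decide
  -- the Sylow 3-subgroup
  have hz3 : IsPGroup 3 (zpowers s) := IsPGroup.of_card (n := 1) (by rw [Nat.card_zpowers, hs3]; norm_num)
  obtain ⟨P, hP⟩ := hz3.exists_le_sylow
  have hPeq : (P : Subgroup Q) = zpowers s := by
    refine (Subgroup.eq_of_le_of_card_ge hP ?_).symm
    obtain ⟨n, hn⟩ := IsPGroup.iff_card.mp P.isPGroup'
    have h1 : Nat.card (P : Subgroup Q) ∣ 120 := (card_subgroup_dvd_card _).trans hcard
    rw [Nat.card_zpowers, hs3]
    change Nat.card (P : Subgroup Q) ≤ 3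
    rw [show Nat.card (P : Subgroup Q) = 3 ^ n from hn] at h1 ⊢
    have h2 : n < 2 := by
      by_contra h3
      have := (pow_dvd_pow 3 (not_lt.mp h3)).trans h1
      revert this
      norm_num
    interval_cases n <;> norm_num
  set N := normalizer (P : Set Q) with hN
  have hn3 : Nat.card (Sylow 3 Q) ≡ 1 [MOD 3] := card_sylow_modEq_one 3 Q
  rw [P.card_eq_index_normalizer] at hn3
  have hNc : Nat.card N * N.index = Nat.card Q := Subgroup.card_mul_index N
  set C := centralizer ({s} : Set Q) with hC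
  have huC : u ∈ C := by
    rw [hC, mem_centralizer_singleton_iff, hs]
    exact (Commute.refl u).pow_right 4
  have hC12 : 12 ∣ Nat.card C := by
    rw [← hu, ← Subgroup.orderOf_mk u huC]
    exact orderOf_dvd_natCard _
  have hsP : s ∈ (P : Subgroup Q) := by rw [hPeq]; exact mem_zpowers s
  have hCN : C ≤ N := by
    intro g hg
    rw [hC, mem_centralizer_singleton_iff] at hg
    refine Subgroup.mem_normalizer_fintype ?_
    intro x hx
    have hx' : x ∈ zpowers s := by rw [← hPeq]; exact hx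
    obtain ⟨k, rfl⟩ := mem_zpowers_iff.mp hx'
    have : g * s ^ k * g⁻¹ = s ^ k := by
      rw [mul_inv_eq_iff_eq_mul]
      exact (show Commute g s from hg).zpow_right k
    rw [this]
    exact hx
  have hnn : N.index ≠ 1 := by
    intro h1
    have h2 : y ∈ N := by rw [Subgroup.index_eq_one.mp h1]; trivial
    have h3 : y * s * y⁻¹ ∈ zpowers s := by
      rw [← hPeq]
      exact (Subgroup.mem_normalizer_iff.mp h2 s).mp hsP
    have h4 := commute_of_norm (m := 5) hs3 h3 (by rw [← hy, pow_orderOf_eq_one]) (by norm_num)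
      (by intro k hk; interval_cases k <;> norm_num)
    exact h15 s y hs3 hy h4.symm
  -- `N ≤ C`
  have hNC : N ≤ C := by
    by_contra hcon
    obtain ⟨j, hj⟩ := Subgroup.card_dvd_of_le hCN
    have hj1 : j ≠ 1 := by
      rintro rfl
      rw [mul_one] at hj
      exact hcon (Subgroup.eq_of_le_of_card_ge hCN hj.le).ge
    obtain ⟨c, hcc⟩ := hC12
    have h1 : 12 * (c * (j * N.index)) ∣ 12 * 10 := by
      have : 12 * (c * (j * N.index)) = Nat.card Q := by rw [← hNc, hj, hcc]; ring
      rw [this]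
      exact hcard
    have h2 := Nat.dvd_of_mul_dvd_mul_left (by norm_num) h1
    have h3 : j * N.index ∣ 10 := (Dvd.intro_left _ rfl).trans h2
    have h4 : N.index ∣ 10 := (Dvd.intro_left _ rfl).trans h3
    have h5 : N.index ∈ Nat.divisors 10 := Nat.mem_divisors.mpr ⟨h4, by norm_num⟩
    rw [show Nat.divisors 10 = {1, 2, 5, 10} by decide] at h5
    simp only [Finset.mem_insert, Finset.mem_singleton] at h5
    rcases h5 with h5 | h5 | h5 | h5
    · exact hnn h5
    · rw [h5] at hn3; revert hn3; decide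
    · rw [h5] at hn3; revert hn3; decide
    · rw [h5] at h3
      have h6 : j * 10 ∣ 1 * 10 := by rwa [one_mul]
      exact hj1 (Nat.dvd_one.mp (Nat.dvd_of_mul_dvd_mul_right (by norm_num) h6))
  -- Burnside
  have hNC' : N ≤ centralizer ((P : Subgroup Q) : Set Q) := by
    intro g hg
    have h1 := hNC hg
    rw [hC, mem_centralizer_singleton_iff] at h1
    rw [mem_centralizer_iff]
    intro x hx
    have hx' : x ∈ zpowers s := by rw [← hPeq]; exact hx
    obtain ⟨k, rfl⟩ := mem_zpowers_iff.mp hx'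
    exact ((show Commute g s from h1).zpow_right k).symm
  have hcomp := MonoidHom.ker_transferSylow_isComplement' P hNC'
  set M := (MonoidHom.transferSylow P hNC').ker with hM
  have hMc : Nat.card M * 3 = Nat.card Q := by
    rw [← hcomp.card_mul_card]
    congr 1
    rw [hPeq, Nat.card_zpowers, hs3]
  have hM40 : Nat.card M ∣ 40 := by
    have : Nat.card M * 3 ∣ 40 * 3 := by rw [hMc]; exact hcard
    exact Nat.dvd_of_mul_dvd_mul_right (by norm_num) this
  have hMi : M.index = 3 := by
    have h1 := Subgroup.card_mul_index M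
    rw [← hMc] at h1
    exact Nat.eq_of_mul_eq_mul_left Nat.card_pos h1
  have h5M : ∀ z : Q, orderOf z = 5 → z ∈ M := by
    intro z hz
    rw [← QuotientGroup.eq_one_iff, ← orderOf_eq_one_iff]
    refine Nat.eq_one_of_dvd_coprimes (a := 5) (b := 3) (by norm_num) ?_ ?_
    · rw [← hz]
      exact orderOf_map_dvd (QuotientGroup.mk' M) z
    · have h1 : orderOf (z : Q ⧸ M) ∣ M.index := orderOf_dvd_natCard _
      rwa [hMi] at h1
  have hn5 : Nat.card (Sylow 5 M) = 1 := by
    have h1 : Nat.card (Sylow 5 M) ≡ 1 [MOD 5] := card_sylow_modEq_one 5 M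
    have h2 : Nat.card (Sylow 5 M) ∣ 40 :=
      ((Sylow.card_dvd_index (default : Sylow 5 M)).trans (Subgroup.index_dvd_card _)).trans hM40
    have h5 : Nat.card (Sylow 5 M) ∈ Nat.divisors 40 := Nat.mem_divisors.mpr ⟨h2, by norm_num⟩
    rw [show Nat.divisors 40 = {1, 2, 4, 5, 8, 10, 20, 40} by decide] at h5
    simp only [Finset.mem_insert, Finset.mem_singleton] at h5
    rcases h5 with h5 | h5 | h5 | h5 | h5 | h5 | h5 | h5
    · exact h5
    all_goals
      exfalso
      rw [h5] at h1
      revert h1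
      decide
  have hsub : Subsingleton (Sylow 5 M) := (Nat.card_eq_one_iff_unique.mp hn5).1
  have hpg : ∀ z : M, orderOf z = 5 → IsPGroup 5 (zpowers z) := fun z hz =>
    IsPGroup.of_card (n := 1) (by rw [Nat.card_zpowers, hz]; norm_num)
  set y' : M := ⟨y, h5M y hy⟩ with hy'
  have hyo : orderOf y' = 5 := by rw [hy', Subgroup.orderOf_mk, hy]
  have hcy : orderOf (s * y * s⁻¹) = 5 := by
    have h1 : s * y * s⁻¹ = MulAut.conj s y := rfl
    rw [h1, MulEquiv.orderOf_eq, hy]
  set w' : M := ⟨s * y * s⁻¹, h5M _ hcy⟩ with hw'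
  have hwo : orderOf w' = 5 := by rw [hw', Subgroup.orderOf_mk, hcy]
  obtain ⟨R1, hR1⟩ := (hpg y' hyo).exists_le_sylow
  obtain ⟨R2, hR2⟩ := (hpg w' hwo).exists_le_sylow
  have hR : R1 = R2 := Subsingleton.elim _ _
  have hRe : zpowers y' = (R1 : Subgroup M) := by
    refine Subgroup.eq_of_le_of_card_ge hR1 ?_
    obtain ⟨n, hn⟩ := IsPGroup.iff_card.mp R1.isPGroup'
    have h1 : Nat.card (R1 : Subgroup M) ∣ 40 := (card_subgroup_dvd_card _).trans hM40
    rw [Nat.card_zpowers, hyo]
    rw [show Nat.card (R1 : Subgroup M) = 5 ^ n from hn] at h1 ⊢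
    have h2 : n < 2 := by
      by_contra h3
      have := (pow_dvd_pow 5 (not_lt.mp h3)).trans h1
      revert this
      norm_num
    interval_cases n <;> norm_num
  have hmem : w' ∈ zpowers y' := by
    rw [hRe, hR]
    exact hR2 (mem_zpowers _)
  have hmem' : s * y * s⁻¹ ∈ zpowers y := by
    obtain ⟨k, hk⟩ := mem_zpowers_iff.mp hmem
    exact mem_zpowers_iff.mpr ⟨k, congrArg Subtype.val hk⟩
  have h4 := commute_of_norm (m := 3) hy hmem' (by rw [← hs3, pow_orderOf_eq_one]) (by norm_num)
    (by intro k hk; interval_cases k <;> norm_num)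
  exact h15 s y hs3 hy h4

end Cfsg.Agent.H359.Alt
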